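import Cfsg.Agent.N9.Defs

/-! The normaliser of `3^(1+4)` in `GL₉`: the three-dimensional factors. -/

set_option autoImplicit false
set_option linter.unusedSectionVars false
set_option linter.unusedVariables false
set_option linter.unusedSimpArgs false

namespace Cfsg.Agent.N9

open Cfsg Cfsg.Geo Cfsg.Agent.H98 Cfsg.Agent.H99 Cfsg.Agent.H85.L3 Matrix

variable {F : Type*} [Field F] [Fintype F]

local notation "𝐆" => GL (Fin 3) F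
local notation "𝐌" => Matrix (Fin 3) (Fin 3) F
local notation "𝐙" => scalars (Fin 3) F
local notation "𝐕" => ZMod 3 × ZMod 3

theorem comm_cube {n : Type} [Fintype n] [DecidableEq n] [Nonempty n] {g y : GL n F}
    (y3 : y ^ 3 = 1) (h : g * y * g⁻¹ * y⁻¹ ∈ scalars n F) :
    ∃ c : Fˣ, (c : F) ^ 3 = 1 ∧ g * y * g⁻¹ = scal n c * y := by
  obtain ⟨c, hc⟩ := mem_scalars_iff'.1 h
  rw [mul_inv_eq_iff_eq_mul] at hc
  refine ⟨c, ?_, hc⟩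
  have h1 : (scal n c * y) ^ 3 = 1 := by rw [← hc, conj_pow, y3, mul_one, mul_inv_cancel]
  rw [Commute.mul_pow (scal_comm c y), y3, mul_one, ← scal_pow, ← scal_one] at h1
  rw [← Units.val_pow_eq_pow_val, scal_injective h1, Units.val_one]

theorem yG_cube : yG F ^ 3 = 1 := by
  rw [yG_eq, ← map_pow, show finRotate 3 ^ 3 = 1 by decide, map_one]

theorem PG_inv : (PG F)⁻¹ = PG F := inv_eq_of_mul_eq_one_right PG_PG

/-- the action of `a` -/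
def mA : 𝐕 × 𝐕 := ((0, 2), (1, 0))
/-- the action of `t` -/
def mT : 𝐕 × 𝐕 := ((1, 0), (1, 1))
/-- minus one -/
def mN : 𝐕 × 𝐕 := ((2, 0), (0, 2))

theorem sl_word : ∀ M, dtm M = 1 → ∃ (i : Fin 3) (j : Fin 4) (k : Fin 3) (l : Fin 4),
    M = cmp (pwm mT i) (cmp (pwm mA j) (cmp (pwm mT k) (pwm mA l))) := by decide +kernel

theorem sl_tr : ∀ v : 𝐕, v ≠ 0 → ∃ M, dtm M = 1 ∧ Lm M v = (1, 0) := by decide +kernel

theorem sl_four : ∀ M, dtm M = 1 → pwm M 4 = idm → ∀ N, dtm N = 1 → pwm N 4 = idm →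
    pwm (cmp M N) 4 = idm := by decide +kernel

theorem sl_cent : ∀ M, dtm M = 1 → cmp M mA = cmp mA M → cmp M mT = cmp mT M →
    M = idm ∨ M = mN := by decide +kernel

set_option synthInstance.maxSize 2048 in
theorem sl_aut : ∀ X, dtm X = 1 → cmp X X = mN → ∀ Y, dtm Y = 1 → pwm Y 3 = idm → Y ≠ idm →
    pwm (cmp X Y) 3 = pwm (cmp mA mT) 3 → ∃ M, dtm M = 1 ∧
      (cmp M mA = cmp X M ∧ cmp M mT = cmp Y M ∨ cmp (cmp Y M) mT = M) := by decide +kernel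

theorem sl_card : (Finset.univ.filter fun M : 𝐕 × 𝐕 => dtm M = 1).card = 24 := by decide +kernel

theorem act_eq {ω : F} {g : 𝐆} {M N : 𝐕 × 𝐕} (a : Act ω g M) (e : M = N) : Act ω g N := e ▸ a

variable {ω : F} (h : Om ω)
include h

theorem act_a : Act ω h.h1 mA := h.act_h1
theorem act_t : Act ω h.dG mT := h.act_d

theorem xG_cube : h.xG ^ 3 = 1 := h.cube_of_mem h.x_mem

theorem dG_cube : h.dG ^ 3 = 1 := by
  rw [pow_three, ← h.d_inv, mul_inv_cancel]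

theorem x_RS3 : h.xG ∈ RS3 h := ⟨_, h.ty_x⟩
theorem y_RS3 : yG F ∈ RS3 h := ⟨_, h.ty_y⟩

theorem sc_RS3 : 𝐙 ≤ RS3 h := fun g hg => by
  obtain ⟨c, rfl⟩ := mem_scalars_iff'.1 hg
  exact ⟨0, coe_scal (ι := Fin 3) c ▸ (ty_one ω).smul _⟩

theorem sc_of_ty {r : 𝐆} (h1 : Ty ω (r : 𝐌) 0) : r ∈ 𝐙 :=
  let ⟨_, hc⟩ := h.scalar_of_ty h1
  mem_scalars_of_coe_eq hc

theorem RS3_of_comm {g : 𝐆} (h1 : g * h.xG * g⁻¹ * h.xG⁻¹ ∈ 𝐙)
    (h2 : g * yG F * g⁻¹ * (yG F)⁻¹ ∈ 𝐙) : g ∈ RS3 h := by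
  obtain ⟨c, c3, hc⟩ := comm_cube (xG_cube h) h1
  obtain ⟨d, d3, hd⟩ := comm_cube yG_cube h2
  obtain ⟨a, ha⟩ := h.exists_w c3
  obtain ⟨b, hb⟩ := h.exists_w d3
  rw [mul_inv_eq_iff_eq_mul] at hc hd
  have hc := congrArg Units.val hc
  have hd := congrArg Units.val hd
  simp only [Units.val_mul, coe_scal, smul_mul_assoc, one_mul, ha, hb] at hc hd
  refine ⟨(b, -a), ?_, hd⟩
  erw [hc]
  rw [smul_smul, ← h.w_add, neg_add_cancel, w_zero, one_smul]; rfl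

theorem comm_RS3 {r s : 𝐆} (hr : r ∈ RS3 h) (hs : s ∈ RS3 h) : r * s * r⁻¹ * s⁻¹ ∈ 𝐙 := by
  obtain ⟨u, hu⟩ := hr
  obtain ⟨v, hv⟩ := hs
  exact sc_of_ty h (by
    simpa using h.ty_mul (h.ty_mul (h.ty_mul hu hv) (h.ty_inv hu)) (h.ty_inv hv))

theorem eq_of_ty' {r : 𝐆} {v : 𝐕} (h1 : Ty ω (r : 𝐌) v) :
    ∃ c, r = scal (Fin 3) c * (h.xG ^ v.1.val * yG F ^ v.2.val) := by
  obtain ⟨c, hc⟩ := h.eq_of_ty h1
  have c0 : c ≠ 0 := by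
    rintro rfl
    exact r.ne_zero (hc.trans (zero_smul _ _))
  exact ⟨Units.mk0 c c0, Units.ext (by rw [Units.val_mul, coe_scal, hc]; simp [EM]; rfl)⟩

theorem RS3_le {X : Subgroup 𝐆} (hs : 𝐙 ≤ X) (hx : h.xG ∈ X) (hy : yG F ∈ X) : RS3 h ≤ X := by
  rintro r ⟨v, hv⟩
  obtain ⟨c, rfl⟩ := eq_of_ty' h hv
  exact mul_mem (hs (scal_mem c)) (mul_mem (pow_mem hx _) (pow_mem hy _))

theorem ty_xy (i j : ℕ) : Ty ω ((h.xG ^ i * yG F ^ j : 𝐆) : 𝐌) ((i : ZMod 3), (j : ZMod 3)) := by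
  have := h.ty_mul (h.ty_pow h.ty_x i) (h.ty_pow h.ty_y j)
  rw [show i • ((1, 0) : 𝐕) + j • ((0, 1) : 𝐕) = ((i : ZMod 3), (j : ZMod 3)) by simp] at this
  exact this

theorem indep_xy (i j : ℕ) (e : h.xG ^ i * yG F ^ j ∈ 𝐙) : 3 ∣ i ∧ 3 ∣ j := by
  obtain ⟨c, hc⟩ := mem_scalars_iff'.1 e
  have := h.ty_unique (ty_xy h i j) (show Ty ω _ 0 by
    rw [hc, coe_scal]; exact (ty_one ω).smul _)
  simpa [ZMod.natCast_eq_zero_iff] using this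

theorem cube_RS3 {r : 𝐆} (hr : r ∈ RS3 h) : r ^ 3 ∈ 𝐙 := by
  obtain ⟨v, hv⟩ := hr
  have k : ∀ u : 𝐕, 3 • u = 0 := by decide
  exact sc_of_ty h (k v ▸ h.ty_pow hv 3)

theorem mem_N3 {g : 𝐆} {M : 𝐕 × 𝐕} (h1 : Act ω g M) : g ∈ N3 h :=
  Subgroup.mem_normalizer_fintype fun _ ⟨v, hv⟩ => ⟨_, h1 _ v hv⟩

theorem N3_conj {g r : 𝐆} (hg : g ∈ N3 h) (hr : r ∈ RS3 h) : g * r * g⁻¹ ∈ RS3 h :=
  (Subgroup.mem_normalizer_iff.1 hg _).1 hr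

theorem mem_N3_of {g : 𝐆} (h1 : g * h.xG * g⁻¹ ∈ RS3 h) (h2 : g * yG F * g⁻¹ ∈ RS3 h) :
    g ∈ N3 h :=
  let ⟨_, hu⟩ := h1
  let ⟨_, hv⟩ := h2
  mem_N3 h (h.act_of hu hv)

theorem act_N3 {g : 𝐆} (hg : g ∈ N3 h) : ∃ M, Act ω g M ∧ dtm M = 1 := by
  obtain ⟨u, hu⟩ := N3_conj h hg (x_RS3 h)
  obtain ⟨v, hv⟩ := N3_conj h hg (y_RS3 h)
  refine ⟨_, h.act_of hu hv, ?_⟩
  obtain ⟨c, hc⟩ := h.eq_of_ty hv
  have k := congrArg (c • ·) (h.ty_comm hu v)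
  rw [smul_comm, ← mul_smul_comm, ← smul_mul_assoc, ← hc, ← Units.val_mul, ← Units.val_mul,
    conj_mul, conj_mul] at k
  have k2 : ((g * (h.xG * yG F) * g⁻¹ : 𝐆) : 𝐌) = w ω 1 • ((g * (yG F * h.xG) * g⁻¹ : 𝐆) : 𝐌) := by
    simp only [Units.val_mul]
    rw [← smul_mul_assoc, ← mul_smul_comm, w_one]
    exact congrArg (fun A => (g : 𝐌) * A * ((g⁻¹ : 𝐆) : 𝐌)) h.xy
  exact h.w_inj (smul_left_injective F (Units.ne_zero _) (k.symm.trans k2))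

theorem RS3_of_act {g : 𝐆} (h1 : Act ω g idm) : g ∈ RS3 h := by
  have k : ∀ {a : 𝐆} {v : 𝐕}, Ty ω (a : 𝐌) v → g * a * g⁻¹ * a⁻¹ ∈ 𝐙 := fun {a v} hv => by
    have := h.ty_mul (h1 _ _ hv) (h.ty_inv hv)
    rw [show Lm idm v + -v = 0 by ext <;> simp [Lm, idm]] at this
    exact sc_of_ty h this
  exact RS3_of_comm h (k h.ty_x) (k h.ty_y)

theorem RS3_le_N3 : RS3 h ≤ N3 h := Subgroup.le_normalizer

theorem aa_eq : h.h1 * h.h1 = scal (Fin 3) (-1) * PG F := by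
  rw [h.h1_sq]
  apply Units.ext
  rw [Units.val_mul, coe_scal, coe_PG, coe_mk1]
  ext i j
  fin_cases i <;> fin_cases j <;> simp

theorem PG_eq : PG F = scal (Fin 3) (-1) * (h.h1 * h.h1) := by
  rw [aa_eq, ← mul_assoc, ← scal_mul, neg_mul_neg, mul_one, scal_one, one_mul]

theorem act_aa : Act ω (h.h1 * h.h1) mN := act_eq ((act_a h).mul (act_a h)) (by decide)

theorem act_P : Act ω (PG F) mN := by
  rw [PG_eq h]
  exact act_eq ((act_scalar ω (scal_mem _)).mul (act_aa h)) (by decide)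

theorem P_N3 : PG F ∈ N3 h := mem_N3 h (act_P h)

theorem sc_of_comm_P {r : 𝐆} (hr : r ∈ RS3 h) (e : r * PG F * r⁻¹ * (PG F)⁻¹ ∈ 𝐙) : r ∈ 𝐙 := by
  obtain ⟨v, hv⟩ := hr
  obtain ⟨c, hc⟩ := mem_scalars_iff'.1 e
  have h1 := h.ty_mul hv (act_P h _ _ (h.ty_inv hv))
  have h2 : Ty ω ((r * PG F * r⁻¹ * (PG F)⁻¹ : 𝐆) : 𝐌) 0 := by
    rw [hc, coe_scal]; exact (ty_one ω).smul _
  have h3 := h.ty_unique (r := r * PG F * r⁻¹ * (PG F)⁻¹) (by simpa [mul_assoc] using h1) h2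
  have k : ∀ v : 𝐕, v + Lm mN (-v) = 0 → v = 0 := by decide
  exact sc_of_ty h (k v h3 ▸ hv)

theorem coe_h1 :
    ((h.h1 : 𝐆) : 𝐌) = (ω - ω ^ 2)⁻¹ • !![1, 1, 1; 1, ω, ω ^ 2; 1, ω ^ 2, ω] := rfl

theorem coe_dG : ((h.dG : 𝐆) : 𝐌) = !![ω, 0, 0; 0, 1, 0; 0, 0, 1] := rfl

theorem coe_xG : ((h.xG : 𝐆) : 𝐌) = !![1, 0, 0; 0, ω, 0; 0, 0, ω ^ 2] := rfl

theorem a_LL : h.h1 ∈ LL h := by
  refine (mem_LL h).2 ⟨mem_N3 h h.act_h1, ?_, ?_⟩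
  · rw [PG_eq h, ← mul_assoc, ← scal_comm]; simp only [mul_assoc]
  · rw [coe_h1, smul_mulVec, inv_smul_eq_iff₀ h.theta_ne]
    ext i
    fin_cases i <;> simp [vA, mulVec, dotProduct, Fin.sum_univ_three] <;> ring

theorem t_LL : h.dG ∈ LL h := by
  refine (mem_LL h).2 ⟨mem_N3 h h.act_d, Units.ext ?_, ?_⟩
  · rw [Units.val_mul, Units.val_mul, coe_dG, coe_PG]
    ext i j
    fin_cases i <;> fin_cases j <;> simp
  · rw [coe_dG]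
    ext i
    fin_cases i <;> simp [vA, mulVec, dotProduct, Fin.sum_univ_three]

omit h in
theorem eq_one_of_sc {g : 𝐆} (hg : g ∈ 𝐙) (e : (g : 𝐌) *ᵥ vA F = vA F) : g = 1 := by
  obtain ⟨c, rfl⟩ := mem_scalars_iff'.1 hg
  have := congrFun e 1
  rw [coe_scal, smul_mulVec, one_mulVec] at this
  rw [show c = 1 from Units.ext (by simpa [vA] using this), scal_one]

theorem LL_inj {l : 𝐆} (hl : l ∈ LL h) (e : Act ω l idm) : l = 1 := by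
  obtain ⟨-, h2, h3⟩ := (mem_LL h).1 hl
  exact eq_one_of_sc (sc_of_comm_P h (RS3_of_act h e) (by rw [h2]; simp [one_mem])) h3

theorem act_LL {l : 𝐆} (hl : l ∈ LL h) : ∃ M, Act ω l M ∧ dtm M = 1 :=
  act_N3 h ((mem_LL h).1 hl).1

theorem act_inv_mul {g g' : 𝐆} {M : 𝐕 × 𝐕} (a : Act ω g M) (b : Act ω g' M) :
    Act ω (g⁻¹ * g') idm := by
  obtain ⟨N, hN, -⟩ := act_N3 h (inv_mem (mem_N3 h a))
  have h1 := hN.mul a
  rw [inv_mul_cancel] at h1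
  exact h.act_unique h1 (act_scalar ω (one_mem _)) ▸ hN.mul b

theorem LL_ext {l l' : 𝐆} (hl : l ∈ LL h) (hl' : l' ∈ LL h) {M : 𝐕 × 𝐕} (a : Act ω l M)
    (b : Act ω l' M) : l = l' :=
  inv_mul_eq_one.1 (LL_inj h (mul_mem (inv_mem hl) hl') (act_inv_mul h a b))

theorem exists_LL {X : Subgroup 𝐆} (ha : h.h1 ∈ X) (ht : h.dG ∈ X) {M : 𝐕 × 𝐕} (hM : dtm M = 1) :
    ∃ l ∈ X, l ∈ LL h ∧ Act ω l M := by
  obtain ⟨i, j, k, l, rfl⟩ := sl_word M hM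
  have k : ∀ {Y : Subgroup 𝐆}, h.h1 ∈ Y → h.dG ∈ Y →
      h.dG ^ i.val * (h.h1 ^ j.val * (h.dG ^ k.val * h.h1 ^ l.val)) ∈ Y := fun ha ht =>
    mul_mem (pow_mem ht _) (mul_mem (pow_mem ha _) (mul_mem (pow_mem ht _) (pow_mem ha _)))
  exact ⟨_, k ha ht, k (a_LL h) (t_LL h),
    ((act_t h).pow _).mul (((act_a h).pow _).mul (((act_t h).pow _).mul ((act_a h).pow _)))⟩

theorem exists_LL' {M : 𝐕 × 𝐕} (hM : dtm M = 1) : ∃ l ∈ LL h, Act ω l M :=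
  let ⟨l, a, _, b⟩ := exists_LL h (a_LL h) (t_LL h) hM
  ⟨l, a, b⟩

theorem LL_le {X : Subgroup 𝐆} (ha : h.h1 ∈ X) (ht : h.dG ∈ X) : LL h ≤ X := fun g hg => by
  obtain ⟨M, h1, h2⟩ := act_LL h hg
  obtain ⟨l, a, b, c⟩ := exists_LL h ha ht h2
  exact LL_ext h b hg c h1 ▸ a

theorem N3_le {X : Subgroup 𝐆} (hs : 𝐙 ≤ X) (hy : yG F ∈ X) (ha : h.h1 ∈ X) (ht : h.dG ∈ X) :
    N3 h ≤ X := fun g hg => by
  obtain ⟨M, h1, h2⟩ := act_N3 h hg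
  obtain ⟨l, a, -, c⟩ := exists_LL h ha ht h2
  have := RS3_le h hs (h1_yG h ▸ mul_mem (mul_mem ha hy) (inv_mem ha)) hy
    (RS3_of_act h (act_inv_mul h c h1))
  simpa using mul_mem a this

theorem exists_conj_x {r : 𝐆} (hr : r ∈ RS3 h) (h1 : r ∉ 𝐙) :
    ∃ l ∈ LL h, ∃ c, l * r * l⁻¹ = scal (Fin 3) c * h.xG := by
  obtain ⟨v, hv⟩ := hr
  obtain ⟨M, h2, h3⟩ := sl_tr v fun e => h1 (sc_of_ty h (e ▸ hv))
  obtain ⟨l, hl, h4⟩ := exists_LL' h h2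
  obtain ⟨c, hc⟩ := eq_of_ty' h (r := l * r * l⁻¹) (h3 ▸ h4 _ _ hv)
  exact ⟨l, hl, c, by simpa [ZMod.val_one] using hc⟩

theorem LL_pow {l : 𝐆} (hl : l ∈ LL h) : l ^ 12 = 1 :=
  let ⟨M, h1, h2⟩ := act_LL h hl
  LL_inj h (pow_mem hl _) (pwm_twelve M h2 ▸ h1.pow 12)

theorem aa_LL : h.h1 * h.h1 ∈ LL h := mul_mem (a_LL h) (a_LL h)

theorem aa_ne : h.h1 * h.h1 ≠ 1 := fun e =>
  absurd (h.act_unique (e ▸ act_aa h) (act_scalar ω (one_mem _))) (by decide)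

theorem aa_aa : h.h1 * h.h1 * (h.h1 * h.h1) = 1 :=
  LL_inj h (mul_mem (aa_LL h) (aa_LL h)) (act_eq ((act_aa h).mul (act_aa h)) (by decide))

theorem LL_invol {l : 𝐆} (hl : l ∈ LL h) (e : l * l = 1) : l = 1 ∨ l = h.h1 * h.h1 := by
  obtain ⟨M, h1, h2⟩ := act_LL h hl
  rcases invol_cases M h2 (h.act_unique (e ▸ h1.mul h1) (act_scalar ω (one_mem _))) with rfl | rfl
  exacts [Or.inl (LL_inj h hl h1), Or.inr (LL_ext h hl (aa_LL h) h1 (act_aa h))]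

theorem LL_cent {l : 𝐆} (hl : l ∈ LL h) (e1 : l * h.h1 = h.h1 * l) (e2 : l * h.dG = h.dG * l) :
    l = 1 ∨ l = h.h1 * h.h1 := by
  obtain ⟨M, h1, h2⟩ := act_LL h hl
  rcases sl_cent M h2 (h.act_unique (h1.mul (act_a h)) (e1 ▸ (act_a h).mul h1))
    (h.act_unique (h1.mul (act_t h)) (e2 ▸ (act_t h).mul h1)) with rfl | rfl
  exacts [Or.inl (LL_inj h hl h1), Or.inr (LL_ext h hl (aa_LL h) h1 (act_aa h))]

theorem card_LL : ¬ 9 ∣ Nat.card (LL h) := by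
  choose f hf using fun l : LL h => act_LL h l.2
  have h1 : Nat.card (LL h) ≤ 24 := by
    rw [← sl_card, ← Fintype.card_coe, ← Nat.card_eq_fintype_card]
    exact Nat.card_le_card_of_injective (fun l => ⟨f l, by simpa using (hf l).2⟩) fun l l' e =>
      Subtype.ext (LL_ext h l.2 l'.2 (hf l).1 (by
        rw [show f l = f l' from congrArg Subtype.val e]; exact (hf l').1))
  have h2 : orderOf (⟨h.h1, a_LL h⟩ : LL h) = 2 ^ 2 := by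
    refine orderOf_eq_prime_pow (n := 1) (fun e => aa_ne h ?_) (Subtype.ext ?_)
    · simpa [pow_two] using congrArg Subtype.val e
    · simpa [pow_succ, mul_assoc] using aa_aa h
  have h3 := h2 ▸ orderOf_dvd_natCard (⟨h.h1, a_LL h⟩ : LL h)
  have h4 : 0 < Nat.card (LL h) := Nat.card_pos
  omega

/-- the quaternion group -/
def QQ : Subgroup 𝐆 where
  carrier := {l | l ∈ LL h ∧ l ^ 4 = 1}
  one_mem' := ⟨one_mem _, one_pow _⟩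
  mul_mem' := by
    rintro l l' ⟨a, b⟩ ⟨a', b'⟩
    obtain ⟨M, h1, h2⟩ := act_LL h a
    obtain ⟨N, h3, h4⟩ := act_LL h a'
    exact ⟨mul_mem a a', LL_inj h (pow_mem (mul_mem a a') _) (sl_four M h2
      (h.act_unique (b ▸ h1.pow 4) (act_scalar ω (one_mem _))) N h4
      (h.act_unique (b' ▸ h3.pow 4) (act_scalar ω (one_mem _))) ▸ (h1.mul h3).pow 4)⟩
  inv_mem' := fun ⟨a, b⟩ => ⟨inv_mem a, by rw [inv_pow, b, inv_one]⟩

theorem QQ_of_pow {l : 𝐆} (hl : l ∈ LL h) {k : ℕ} (e : l ^ 2 ^ k = 1) : l ∈ QQ h := by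
  refine ⟨hl, ?_⟩
  have h1 := pow_gcd_eq_one.2 ⟨e, LL_pow h hl⟩
  have h2 : Nat.gcd (2 ^ k) 12 ∣ 4 :=
    Nat.Coprime.dvd_of_dvd_mul_right (n := 3) (Nat.Coprime.coprime_dvd_left (Nat.gcd_dvd_left _ _)
      (Nat.Coprime.pow_left _ (by norm_num))) (Nat.gcd_dvd_right _ _)
  obtain ⟨j, hj⟩ := h2
  rw [hj, pow_mul, h1, one_pow]

theorem a_QQ : h.h1 ∈ QQ h := ⟨a_LL h, by simpa [pow_succ, mul_assoc] using aa_aa h⟩

/-- automorphisms of `SL₂(3)` -/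
theorem aut_LL {x y : 𝐆} (hx : x ∈ LL h) (hy : y ∈ LL h) (e1 : x * x = h.h1 * h.h1)
    (e2 : y ^ 3 = 1) (e3 : y ≠ 1) (e4 : (x * y) ^ 3 = (h.h1 * h.dG) ^ 3) :
    ∃ l ∈ LL h, l * h.h1 * l⁻¹ = x ∧ l * h.dG * l⁻¹ = y ∨ l * h.dG⁻¹ * l⁻¹ = y := by
  obtain ⟨X, h1, h2⟩ := act_LL h hx
  obtain ⟨Y, h3, h4⟩ := act_LL h hy
  obtain ⟨M, h5, h6⟩ := sl_aut X h2 (h.act_unique (h1.mul h1) (e1 ▸ act_aa h)) Y h4
    (h.act_unique (e2 ▸ h3.pow 3) (act_scalar ω (one_mem _))) (fun e => e3 (LL_inj h hy (e ▸ h3)))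
    (h.act_unique ((h1.mul h3).pow 3) (e4 ▸ ((act_a h).mul (act_t h)).pow 3))
  obtain ⟨l, hl, h7⟩ := exists_LL' h h5
  refine ⟨l, hl, h6.imp (fun e => ⟨?_, ?_⟩) fun e => ?_⟩
  · rw [mul_inv_eq_iff_eq_mul]
    exact LL_ext h (mul_mem hl (a_LL h)) (mul_mem hx hl) (h7.mul (act_a h)) (e.1 ▸ h1.mul h7)
  · rw [mul_inv_eq_iff_eq_mul]
    exact LL_ext h (mul_mem hl (t_LL h)) (mul_mem hy hl) (h7.mul (act_t h)) (e.2 ▸ h3.mul h7)
  · rw [mul_inv_eq_iff_eq_mul, mul_inv_eq_iff_eq_mul]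
    exact LL_ext h hl (mul_mem (mul_mem hy hl) (t_LL h)) h7 (e ▸ (h3.mul h7).mul (act_t h))

theorem at_cube : (h.h1 * h.dG) ^ 3 = 1 ∨ (h.h1 * h.dG) ^ 3 = h.h1 * h.h1 := by
  have h1 := ((act_a h).mul (act_t h)).pow 3
  have h2 := pow_mem (mul_mem (a_LL h) (t_LL h)) 3
  rcases (by decide : pwm (cmp mA mT) 3 = idm ∨ pwm (cmp mA mT) 3 = mN) with e | e
  exacts [Or.inl (LL_inj h h2 (act_eq h1 e)), Or.inr (LL_ext h h2 (aa_LL h) (act_eq h1 e) (act_aa h))]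

theorem comm_t_sq : (h.dG * (h.h1 * h.dG * h.h1⁻¹) * h.dG⁻¹ * (h.h1 * h.dG * h.h1⁻¹)⁻¹) ^ 2 =
    h.h1 * h.h1 := by
  have a := a_LL h
  have t := t_LL h
  have i1 : h.h1⁻¹ = h.h1 * (h.h1 * h.h1) :=
    inv_eq_of_mul_eq_one_right (by rw [← mul_assoc]; exact aa_aa h)
  have a1 : Act ω h.h1⁻¹ (cmp mA mN) := i1 ▸ (act_a h).mul (act_aa h)
  have t1 : Act ω h.dG⁻¹ (cmp mT mT) := h.d_inv ▸ (act_t h).mul (act_t h)
  have e : (h.h1 * h.dG * h.h1⁻¹)⁻¹ = h.h1 * h.dG⁻¹ * h.h1⁻¹ := conj_inv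
  refine LL_ext h (pow_mem (mul_mem (mul_mem (mul_mem t (mul_mem (mul_mem a t) (inv_mem a)))
    (inv_mem t)) (inv_mem (mul_mem (mul_mem a t) (inv_mem a)))) 2) (aa_LL h) ?_ (act_aa h)
  rw [e]
  exact act_eq (((((act_t h).mul (((act_a h).mul (act_t h)).mul a1)).mul t1).mul
    (((act_a h).mul t1).mul a1)).pow 2) (by decide)

theorem cent_at {g : 𝐆} (e1 : g * h.h1 = h.h1 * g) (e2 : g * h.dG = h.dG * g) :
    ∃ y z : F, (g : 𝐌) = !![y + z, 0, 0; 0, y, z; 0, z, y] := by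
  have e1 := congrArg Units.val e1
  have e2 := congrArg Units.val e2
  rw [Units.val_mul, Units.val_mul, coe_h1, smul_mul_assoc, mul_smul_comm] at e1
  rw [Units.val_mul, Units.val_mul, coe_dG] at e2
  have e1 := smul_right_injective _ (inv_ne_zero h.theta_ne) e1
  have n1 := sub_ne_zero.2 h.ne_one
  have b01 := congrFun (congrFun e2 0) 1
  have b02 := congrFun (congrFun e2 0) 2
  have b10 := congrFun (congrFun e2 1) 0
  have b20 := congrFun (congrFun e2 2) 0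
  simp only [Matrix.mul_apply, Fin.sum_univ_three] at b01 b02 b10 b20
  simp at b01 b02 b10 b20
  have c01 : (g : 𝐌) 0 1 = 0 := mul_left_cancel₀ n1 (by linear_combination -b01)
  have c02 : (g : 𝐌) 0 2 = 0 := mul_left_cancel₀ n1 (by linear_combination -b02)
  have c10 : (g : 𝐌) 1 0 = 0 := mul_left_cancel₀ n1 (by linear_combination b10)
  have c20 : (g : 𝐌) 2 0 = 0 := mul_left_cancel₀ n1 (by linear_combination b20)
  have a01 := congrFun (congrFun e1 0) 1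
  have a02 := congrFun (congrFun e1 0) 2
  have a10 := congrFun (congrFun e1 1) 0
  have a20 := congrFun (congrFun e1 2) 0
  simp only [Matrix.mul_apply, Fin.sum_univ_three] at a01 a02 a10 a20
  simp [c01, c02, c10, c20] at a01 a02 a10 a20
  have a11 := congrFun (congrFun e1 1) 1
  simp only [Matrix.mul_apply, Fin.sum_univ_three] at a11
  simp [c01, c02, c10, c20] at a11
  have c : (g : 𝐌) 2 1 = (g : 𝐌) 1 2 := by linear_combination -a10 - a01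
  refine ⟨(g : 𝐌) 1 1, (g : 𝐌) 1 2, ?_⟩
  ext i j
  fin_cases i <;> fin_cases j <;> simp [c01, c02, c10, c20, c]
  · linear_combination -a10
  · linear_combination a20 - a10 - c

theorem diag_N3 {g : 𝐆} {b c : F} (e : (g : 𝐌) = !![1, 0, 0; 0, b, 0; 0, 0, c]) (hg : g ∈ N3 h)
    (hbc : b * c = 1) : b ^ 3 = 1 := by
  obtain ⟨v, -, h1⟩ := mul_mem (N3_conj h hg (y_RS3 h)) (inv_mem (y_RS3 h))
  have h2 : ((g * yG F * g⁻¹ * (yG F)⁻¹ : 𝐆) : 𝐌) = !![b, 0, 0; 0, b, 0; 0, 0, c ^ 2] := by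
    rw [mul_assoc, ← _root_.mul_inv_rev, Units.val_mul, Units.mul_inv_eq_iff_eq_mul, Units.val_mul,
      Units.val_mul, e]
    change _ * yM F = _ * (yM F * _)
    ext i j
    fin_cases i <;> fin_cases j <;> simp [yM]
    · linear_combination -hbc
    · linear_combination -c * hbc
  rw [h2] at h1
  have h3 := congrFun (congrFun h1 1) 0
  have h4 := congrFun (congrFun h1 2) 1
  simp [yM] at h3 h4
  linear_combination b ^ 2 * h3 - b ^ 2 * h4 + (b * c + 1) * hbc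

end Cfsg.Agent.N9
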