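import Cfsg.Agent.N9.L3

/-! The normaliser of `3^(1+4)` in `GL₉`: the Pauli group and the Clifford generators. -/

set_option autoImplicit false
set_option linter.unusedSectionVars false
set_option linter.unusedVariables false
set_option linter.unusedSimpArgs false

namespace Cfsg.Agent.N9

open Cfsg Cfsg.Geo Cfsg.Agent.H98 Cfsg.Agent.H99 Cfsg.Agent.H85.L3 Matrix

variable {F : Type*} [Field F] [Fintype F]

local notation "𝐆" => GL (Fin 3) F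
local notation "𝐇" => GL I9 F
local notation "𝐌" => Matrix (Fin 3) (Fin 3) F
local notation "𝐙" => scalars (Fin 3) F
local notation "𝐒" => scalars I9 F

theorem k1_mem_sc {g : 𝐆} : k1 g ∈ 𝐒 ↔ g ∈ 𝐙 := by
  simp only [mem_scalars_iff']
  exact exists_congr fun c => by rw [← k1_scal, k1_injective.eq_iff]

theorem k2_mem_sc {g : 𝐆} : k2 g ∈ 𝐒 ↔ g ∈ 𝐙 := by
  simp only [mem_scalars_iff']
  exact exists_congr fun c => by rw [← k2_scal, k2_injective.eq_iff]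

theorem conj_k1_k2 (g g' : 𝐆) : k1 g * k2 g' * (k1 g)⁻¹ = k2 g' := by
  rw [k1_k2, mul_inv_cancel_right]

theorem conj_k2_k1 (g g' : 𝐆) : k2 g * k1 g' * (k2 g)⁻¹ = k1 g' := by
  rw [← k1_k2, mul_inv_cancel_right]

theorem k1_k2_sc {g g' : 𝐆} (e : k1 g * k2 g' ∈ 𝐒) : g ∈ 𝐙 ∧ g' ∈ 𝐙 := by
  have k : ∀ {a : 𝐆}, (∀ b, a * b = b * a) → a ∈ 𝐙 := fun {a} ha => by
    obtain ⟨c, hc⟩ := Matrix.mem_range_scalar_of_commute_transvectionStruct (M := (a : 𝐌))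
      fun t => by
        have := congrArg Units.val (ha (et t.hij t.c)).symm
        rwa [Units.val_mul, Units.val_mul, coe_et] at this
    exact mem_scalars_of_coe_eq (c := c) (by rw [← hc]; simp [smul_one_eq_diagonal])
  refine ⟨k fun b => k1_injective ?_, k fun b => k2_injective ?_⟩
  · have := scalars_comm e (k1 b)
    rwa [mul_assoc, ← k1_k2, ← mul_assoc, ← mul_assoc, mul_left_inj, ← map_mul, ← map_mul] at this
  · have := scalars_comm e (k2 b)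
    rwa [mul_assoc, ← mul_assoc (k2 b), ← k1_k2, mul_assoc, mul_right_inj, ← map_mul,
      ← map_mul] at this

/-- adjusting by powers of `y` to commute with `x` -/
theorem adj_comm {n : Type} [Fintype n] [DecidableEq n] {g x y : GL n F} {c d : Fˣ}
    (hg : g * x * g⁻¹ = scal n c * x) (hy : y * x * y⁻¹ = scal n d * x) {j : ℕ}
    (e : c * d ^ j = 1) : g * y ^ j * x = x * (g * y ^ j) := by
  have k : ∀ j : ℕ, y ^ j * x * (y ^ j)⁻¹ = scal n (d ^ j) * x := fun j => by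
    induction j with
    | zero => simp [scal_one]
    | succ j ih =>
      rw [pow_succ', _root_.mul_inv_rev, mul_assoc y, ← mul_assoc _ _ y⁻¹, mul_assoc y, ih,
        ← mul_assoc y, ← scal_comm, mul_assoc (scal n _), mul_assoc (scal n _), hy, ← mul_assoc,
        ← scal_mul, pow_succ]
  rw [← mul_inv_eq_iff_eq_mul, _root_.mul_inv_rev, mul_assoc g, ← mul_assoc _ _ g⁻¹, mul_assoc g, k,
    ← mul_assoc g, ← scal_comm, mul_assoc (scal n _), mul_assoc (scal n _), hg, ← mul_assoc,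
    ← scal_mul, mul_comm _ c, e, scal_one, one_mul]

theorem cx_eq : cx F = pm F (Equiv.prodCongrLeft fun k : Fin 3 => finRotate 3 ^ k.val) := by
  rw [← bd_pm, cx, yG_eq]; simp only [map_pow]

theorem two_trans : ∀ a b : I9, a ≠ b → ∃ (i j k : Fin 3) (e f : Fin 2),
    let σ : Equiv.Perm I9 := (Equiv.prodCongrLeft fun _ : Fin 3 => finRotate 3) ^ i.val *
      (Equiv.prodComm _ _ * (Equiv.prodCongrLeft fun _ : Fin 3 => finRotate 3) ^ j.val *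
        Equiv.prodComm _ _) *
      (Equiv.prodCongrLeft fun k : Fin 3 => finRotate 3 ^ k.val) ^ k.val *
      (Equiv.prodComm _ _) ^ e.val * (Equiv.prodCongrLeft fun _ : Fin 3 => Equiv.swap 1 2) ^ f.val
    σ (1, 0) = a ∧ σ (2, 0) = b := by decide +kernel

section

variable {ω : F} (h : Om ω)
include h

/-- `ω` as a unit -/
def wu : Fˣ := Units.mk0 ω h.ne_zero

theorem wu_cube : wu h ^ 3 = 1 := Units.ext h.cube

theorem wu_ne : wu h ≠ 1 := fun e => h.ne_one (congrArg Units.val e)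

theorem exists_wu {c : Fˣ} (hc : (c : F) ^ 3 = 1) : ∃ j : ℕ, c * wu h ^ j = 1 := by
  rcases h.cases hc with e | e | e
  · exact ⟨0, Units.ext (by simp [e])⟩
  · exact ⟨2, Units.ext (by simp [e, wu]; linear_combination h.cube)⟩
  · exact ⟨1, Units.ext (by simp [e, wu]; linear_combination h.cube)⟩

theorem xG_eq : h.xG = dg fun k : Fin 3 => wu h ^ k.val := by
  ext i j
  rw [coe_xG, dg_apply]
  fin_cases i <;> fin_cases j <;> simp [wu]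

theorem dG_eq : h.dG = dg (Pi.mulSingle 0 (wu h)) := by
  ext i j
  rw [coe_dG, dg_apply]
  fin_cases i <;> fin_cases j <;> simp [wu]

theorem x_y : h.xG * yG F * h.xG⁻¹ = scal (Fin 3) (wu h) * yG F := by
  rw [mul_inv_eq_iff_eq_mul]
  apply Units.ext
  rw [Units.val_mul, Units.val_mul, Units.val_mul, coe_scal, smul_mul_assoc, smul_mul_assoc, one_mul]
  exact h.xy

theorem y_x : (yG F)⁻¹ * h.xG * (yG F)⁻¹⁻¹ = scal (Fin 3) (wu h) * h.xG := by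
  rw [inv_inv, mul_assoc, mul_inv_eq_iff_eq_mul.1 (x_y h), mul_assoc, ← mul_assoc, ← scal_comm,
    mul_assoc, inv_mul_cancel_left]

theorem k2_x : k2 h.xG = bd fun k => scal (Fin 3) (wu h ^ k.val) := by rw [xG_eq, k2_dg]

theorem k1_RS9 {r : 𝐆} (hr : r ∈ RS3 h) : k1 r ∈ RS9 h := ⟨r, hr, 1, one_mem _, by simp⟩
theorem k2_RS9 {r : 𝐆} (hr : r ∈ RS3 h) : k2 r ∈ RS9 h := ⟨1, one_mem _, r, hr, by simp⟩

theorem sc_RS9 : 𝐒 ≤ RS9 h := fun g hg => by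
  obtain ⟨c, rfl⟩ := mem_scalars_iff'.1 hg
  exact k1_scal c ▸ k1_RS9 h (sc_RS3 h (scal_mem c))

theorem RS9_le {X : Subgroup 𝐇} (hs : 𝐒 ≤ X) (h1 : k1 h.xG ∈ X) (h2 : k1 (yG F) ∈ X)
    (h3 : k2 h.xG ∈ X) (h4 : k2 (yG F) ∈ X) : RS9 h ≤ X := by
  rintro _ ⟨r, hr, s, hs', rfl⟩
  exact mul_mem (RS3_le h (X := X.comap k1) (fun _ e => hs (k1_mem_sc.2 e)) h1 h2 hr)
    (RS3_le h (X := X.comap k2) (fun _ e => hs (k2_mem_sc.2 e)) h3 h4 hs')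

theorem mem_NN {g : 𝐇} (h1 : g * k1 h.xG * g⁻¹ ∈ RS9 h) (h2 : g * k1 (yG F) * g⁻¹ ∈ RS9 h)
    (h3 : g * k2 h.xG * g⁻¹ ∈ RS9 h) (h4 : g * k2 (yG F) * g⁻¹ ∈ RS9 h) : g ∈ NN h :=
  Subgroup.mem_normalizer_fintype fun _ hr =>
    RS9_le h (X := (RS9 h).comap (MulAut.conj g).toMonoidHom)
      (fun _ e => sc_RS9 h (scalars_normal.conj_mem _ e g)) h1 h2 h3 h4 hr

theorem NN_conj {g r : 𝐇} (hg : g ∈ NN h) (hr : r ∈ RS9 h) : g * r * g⁻¹ ∈ RS9 h :=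
  (Subgroup.mem_normalizer_iff.1 hg _).1 hr

theorem RS9_le_NN : RS9 h ≤ NN h := Subgroup.le_normalizer

theorem k1_NN {g : 𝐆} (hg : g ∈ N3 h) : k1 g ∈ NN h := by
  refine mem_NN h ?_ ?_ ?_ ?_
  · simpa using k1_RS9 h (N3_conj h hg (x_RS3 h))
  · simpa using k1_RS9 h (N3_conj h hg (y_RS3 h))
  · rw [conj_k1_k2]; exact k2_RS9 h (x_RS3 h)
  · rw [conj_k1_k2]; exact k2_RS9 h (y_RS3 h)

theorem sw_NN : sw F ∈ NN h :=
  mem_NN h (k2_RS9 h (x_RS3 h)) (k2_RS9 h (y_RS3 h)) (sw_k2 h.xG ▸ k1_RS9 h (x_RS3 h))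
    (sw_k2 (yG F) ▸ k1_RS9 h (y_RS3 h))

theorem cx_z1 : cx F * (k1 h.xG * k2 h.xG) * (cx F)⁻¹ = k1 h.xG := by
  rw [k2_x, cx, k1_eq, ← map_inv, ← map_mul, ← map_mul, ← map_mul]
  congr 1
  funext k
  change yG F ^ k.val * (h.xG * scal _ (wu h ^ k.val)) * (yG F ^ k.val)⁻¹ = h.xG
  have e : yG F * (scal (Fin 3) (wu h) * h.xG) = h.xG * yG F := by rw [← y_x]; group
  induction k.val with
  | zero => simp [scal_one]
  | succ n ih =>
    rw [pow_succ, pow_succ, scal_mul, ← mul_assoc h.xG, ← scal_comm (wu h), ← mul_assoc (scal _ _),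
      mul_assoc (_ ^ n), ← mul_assoc (yG F), e, mul_assoc h.xG, ← scal_comm, _root_.mul_inv_rev]
    simpa only [mul_assoc, mul_inv_cancel_left] using ih

theorem cx_z2 : cx F * k2 h.xG * (cx F)⁻¹ = k2 h.xG := by
  rw [k2_x, cx, ← map_inv, ← map_mul, ← map_mul]
  congr 1
  funext k
  simp [← scal_comm]

omit h in
theorem cx_x1 : cx F * k1 (yG F) * (cx F)⁻¹ = k1 (yG F) := by
  rw [cx, k1_eq, ← map_inv, ← map_mul, ← map_mul]
  congr 1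
  funext k
  simp [← pow_succ, pow_succ']

omit h in
theorem cx_x2 : cx F * k2 (yG F) * (cx F)⁻¹ = k1 (yG F) * k2 (yG F) := by
  rw [cx_eq, yG_eq, k2_pm, k1_eq, bd_pm, ← map_inv, ← map_mul, ← map_mul, ← map_mul]
  congr 1
  decide +kernel

theorem cl_NN' : Cl h (NN h) where
  sc := (sc_RS9 h).trans (RS9_le_NN h)
  x := k1_NN h (RS3_le_N3 h (y_RS3 h))
  a := k1_NN h (mem_N3 h h.act_h1)
  t := k1_NN h (mem_N3 h h.act_d)
  sw := sw_NN h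
  cx := by
    refine mem_NN h ?_ (by rw [cx_x1]; exact k1_RS9 h (y_RS3 h))
      (by rw [cx_z2]; exact k2_RS9 h (x_RS3 h))
      (by rw [cx_x2]; exact mul_mem (k1_RS9 h (y_RS3 h)) (k2_RS9 h (y_RS3 h)))
    have := cx_z1 h
    rw [← conj_mul, cx_z2, ← eq_mul_inv_iff_mul_eq] at this
    rw [this]
    exact mul_mem (k1_RS9 h (x_RS3 h)) (inv_mem (k2_RS9 h (x_RS3 h)))

theorem exists_bd {g : 𝐇} (e : g * k2 h.xG = k2 h.xG * g) : ∃ f, g = bd f := by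
  have h1 : (g : Matrix I9 I9 F) = blockDiagonal fun k => Matrix.of fun i j =>
      (g : Matrix I9 I9 F) (i, k) (j, k) := by
    ext ⟨i, k⟩ ⟨j, l⟩
    rw [blockDiagonal_apply]
    split_ifs with hkl
    · obtain rfl : k = l := hkl
      rfl
    · have := congrArg (fun x : 𝐇 => (x : Matrix I9 I9 F) (i, k) (j, l)) e
      have e2 : (fun k : Fin 3 => scal (Fin 3) (wu h ^ k.val)) =
          fun k : Fin 3 => dg fun _ => wu h ^ k.val := funext fun _ => (dg_const _).symm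
      simp only [k2_x, e2, bd_dg, Units.val_mul, coe_dg, mul_diagonal, diagonal_mul] at this
      rw [mul_comm, ← sub_eq_zero, ← sub_mul, mul_eq_zero, sub_eq_zero] at this
      refine this.resolve_left fun e => hkl ?_
      have n1 := h.ne_one
      have n2 := h.sq_ne_one
      have n3 := h.sq_ne
      fin_cases k <;> fin_cases l <;> simp_all [wu, eq_comm]
  have h2 := g.det_ne_zero
  rw [h1, det_blockDiagonal, Finset.prod_ne_zero_iff] at h2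
  exact ⟨fun k => mk3 _ (h2 k (Finset.mem_univ _)), Units.ext h1⟩

theorem exists_k1 {g : 𝐇} (e : g * k2 h.xG = k2 h.xG * g) (e' : g * k2 (yG F) = k2 (yG F) * g) :
    ∃ b, g = k1 b := by
  obtain ⟨f, rfl⟩ := exists_bd h e
  have h1 := k2_pm_bd (finRotate 3) f
  rw [← yG_eq, ← e', mul_inv_cancel_right] at h1
  have h2 := congrFun (bd_injective h1)
  refine ⟨f 0, congrArg bd (funext fun k => ?_)⟩
  fin_cases k
  exacts [rfl, h2 1, (h2 2).trans (h2 1)]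

theorem exists_comm_z2 {g : 𝐇} (e : g * k2 h.xG * g⁻¹ * (k2 h.xG)⁻¹ ∈ 𝐒) :
    ∃ j : ℕ, g * k2 (yG F)⁻¹ ^ j * k2 h.xG = k2 h.xG * (g * k2 (yG F)⁻¹ ^ j) := by
  obtain ⟨c, c3, hc⟩ := comm_cube (by rw [← map_pow, xG_cube, map_one]) e
  obtain ⟨j, hj⟩ := exists_wu h c3
  exact ⟨j, adj_comm hc (by rw [← map_inv, ← map_mul, ← map_mul, y_x, map_mul, k2_scal]) hj⟩

theorem comm_RS9 {r s : 𝐇} (hr : r ∈ RS9 h) (hs : s ∈ RS9 h) : r * s * r⁻¹ * s⁻¹ ∈ 𝐒 := by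
  obtain ⟨a, ha, b, hb, rfl⟩ := hr
  obtain ⟨c, hc, d, hd, rfl⟩ := hs
  have := mul_mem (k1_mem_sc.2 (comm_RS3 h ha hc)) (k2_mem_sc.2 (comm_RS3 h hb hd))
  convert this using 1
  simp only [map_mul, map_inv, _root_.mul_inv_rev, mul_assoc]
  simp only [← map_inv, ← mul_assoc, ← map_mul, k1_k2]

theorem cube_RS9 {r : 𝐇} (hr : r ∈ RS9 h) : r ^ 3 ∈ 𝐒 := by
  obtain ⟨a, ha, b, hb, rfl⟩ := hr
  rw [Commute.mul_pow (k1_k2 a b), ← map_pow, ← map_pow]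
  exact mul_mem (k1_mem_sc.2 (cube_RS3 h ha)) (k2_mem_sc.2 (cube_RS3 h hb))

theorem RS9_of_comm {g : 𝐇} (e : ∀ r ∈ RS9 h, g * r * g⁻¹ * r⁻¹ ∈ 𝐒) : g ∈ RS9 h := by
  have k : ∀ {g : 𝐇}, (∀ r ∈ RS9 h, g * r * g⁻¹ * r⁻¹ ∈ 𝐒) → ∀ s ∈ RS9 h,
      ∀ r ∈ RS9 h, g * s * r * (g * s)⁻¹ * r⁻¹ ∈ 𝐒 := fun {g} e s hs r hr => by
    have := mul_mem (scalars_normal.conj_mem _ (comm_RS9 h hs hr) g) (e r hr)
    convert this using 1; group
  have x2 := k2_RS9 h (x_RS3 h)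
  have y2 := k2_RS9 h (y_RS3 h)
  obtain ⟨j, hj⟩ := exists_comm_z2 h (e _ x2)
  have hy : k2 (yG F)⁻¹ ^ j ∈ RS9 h := pow_mem (k2_RS9 h (inv_mem (y_RS3 h))) j
  have e1 := k e _ hy
  obtain ⟨c, c3, hc⟩ := comm_cube (by rw [← map_pow, yG_cube, map_one]) (e1 _ y2)
  obtain ⟨i, hi⟩ := exists_wu h c3
  have h1 := adj_comm hc (y := k2 h.xG)
    (by rw [← map_inv, ← map_mul, ← map_mul, x_y, map_mul, k2_scal]) hi
  have e2 := k e1 _ (pow_mem x2 i)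
  obtain ⟨b, hb⟩ := exists_k1 h (by
    rw [mul_assoc _ (_ ^ i), ← pow_succ, pow_succ', ← mul_assoc, hj, mul_assoc]) h1
  rw [hb] at e2
  have h2 := k1_RS9 h (RS3_of_comm h (g := b)
    (k1_mem_sc.1 (by simpa using e2 _ (k1_RS9 h (x_RS3 h))))
    (k1_mem_sc.1 (by simpa using e2 _ (k1_RS9 h (y_RS3 h)))))
  rw [← hb] at h2
  exact (Subgroup.mul_mem_cancel_right _ hy).1
    ((Subgroup.mul_mem_cancel_right _ (pow_mem x2 i)).1 h2)

theorem k2_of_comm_P {g : 𝐇} (hg : g ∈ RS9 h) (e : g * k1 (PG F) = k1 (PG F) * g) :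
    ∃ s ∈ RS3 h, g = k2 s := by
  obtain ⟨r, hr, s, hs, rfl⟩ := hg
  rw [mul_assoc, ← k1_k2, ← mul_assoc, ← mul_assoc, mul_left_inj, ← map_mul, ← map_mul] at e
  obtain ⟨c, rfl⟩ := mem_scalars_iff'.1
    (sc_of_comm_P h hr (by rw [k1_injective e]; simp [one_mem]))
  exact ⟨_, mul_mem (sc_RS3 h (scal_mem c)) hs, by rw [map_mul, k1_scal, k2_scal]⟩

end

namespace Cl

variable {ω : F} {h : Om ω} {M : Subgroup (GL I9 F)} (c : Cl h M)
include c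

theorem inf : Cl h (M ⊓ NN h) :=
  have d := cl_NN' h
  ⟨le_inf c.sc d.sc, ⟨c.x, d.x⟩, ⟨c.a, d.a⟩, ⟨c.t, d.t⟩, ⟨c.sw, d.sw⟩, ⟨c.cx, d.cx⟩⟩

theorem k1N {g : 𝐆} (hg : g ∈ N3 h) : k1 g ∈ M :=
  N3_le h (X := M.comap k1) (fun _ e => c.sc (k1_mem_sc.2 e)) c.x c.a c.t hg

theorem k2N {g : 𝐆} (hg : g ∈ N3 h) : N9.k2 g ∈ M := c.k2 (c.k1N hg)

theorem k1L {g : 𝐆} (hg : g ∈ LL h) : k1 g ∈ M := c.k1N ((mem_LL h).1 hg).1

theorem k2L {g : 𝐆} (hg : g ∈ LL h) : N9.k2 g ∈ M := c.k2 (c.k1L hg)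

theorem RS : RS9 h ≤ M := RS9_le h c.sc c.z c.x (c.k2 c.z) (c.k2 c.x)

theorem cz : bd (fun k : Fin 3 => h.xG ^ k.val) ∈ M := by
  have := mul_mem (mul_mem c.a c.cx) (inv_mem c.a)
  rw [N9.cx, k1_bd] at this
  simpa only [← conj_pow, h1_yG] using this

theorem tr {x : 𝐇} (hx : x ∈ RS9 h) (h1 : x ∉ 𝐒) :
    ∃ n ∈ M, ∃ d, n * x * n⁻¹ = scal I9 d * N9.k2 h.xG := by
  have k : ∀ {r : 𝐆}, r ∈ RS3 h → r ∉ 𝐙 →
      ∃ n ∈ M, ∃ d, n * k1 r * n⁻¹ = scal I9 d * N9.k2 h.xG := fun {r} hr h1 => by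
    obtain ⟨l, hl, d, hd⟩ := exists_conj_x h hr h1
    refine ⟨N9.sw F * k1 l, mul_mem c.sw (c.k1L hl), d, ?_⟩
    rw [← k2_scal, ← map_mul, ← hd, ← sw_k1, map_mul, map_mul, map_inv]; group
  have tr : ∀ {x y n : 𝐇}, n ∈ M → n * x * n⁻¹ = y →
      (∃ n ∈ M, ∃ d, n * y * n⁻¹ = scal I9 d * N9.k2 h.xG) →
      ∃ n ∈ M, ∃ d, n * x * n⁻¹ = scal I9 d * N9.k2 h.xG := fun {x y n} hn e ⟨m, hm, d, hd⟩ =>
    ⟨m * n, mul_mem hm hn, d, by rw [← hd, ← e]; group⟩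
  obtain ⟨r, hr, s, hs, rfl⟩ := hx
  by_cases h2 : s ∈ 𝐙
  · obtain ⟨d, rfl⟩ := mem_scalars_iff'.1 h2
    rw [k2_scal, ← k1_scal, ← map_mul] at h1 ⊢
    exact k (mul_mem hr hs) fun e => h1 (k1_mem_sc.2 e)
  by_cases h3 : r ∈ 𝐙
  · obtain ⟨d, rfl⟩ := mem_scalars_iff'.1 h3
    rw [k1_scal, ← k2_scal, ← map_mul] at h1 ⊢
    exact tr c.sw (sw_k2 _) (k (mul_mem hr hs) fun e => h1 (k2_mem_sc.2 e))
  obtain ⟨l, hl, d, hd⟩ := exists_conj_x h hr h3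
  obtain ⟨l', hl', d', hd'⟩ := exists_conj_x h hs h2
  refine tr (y := k1 (l * r * l⁻¹) * N9.k2 s) (c.k1L hl) ?_
    (tr (y := k1 (l * r * l⁻¹) * N9.k2 (l' * s * l'⁻¹)) (c.k2L hl') ?_
      (tr (y := k1 (scal _ (d * d') * h.xG)) c.cx ?_ (k (mul_mem (sc_RS3 h (scal_mem _))
        (x_RS3 h)) fun e => ?_)))
  · rw [← conj_mul, conj_k1_k2]; simp
  · rw [← conj_mul, conj_k2_k1]; simp
  · rw [hd, hd', map_mul, map_mul, map_mul, k1_scal, k1_scal, k2_scal, scal_mul,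
      mul_assoc (scal _ d), ← mul_assoc (k1 _), ← scal_comm, mul_assoc (scal _ d'),
      ← mul_assoc (scal _ d), ← mul_assoc (N9.cx F), ← scal_mul, ← scal_comm, mul_assoc (scal _ _),
      mul_assoc (scal _ _), cx_z1]
  · rw [Subgroup.mul_mem_cancel_left _ (scal_mem _)] at e
    simpa using (indep_xy h 1 0 (by simpa using e)).1

theorem two_tr {a b a' b' : I9} (h1 : a ≠ b) (h2 : a' ≠ b') :
    ∃ σ, pm F σ ∈ M ∧ σ a = a' ∧ σ b = b' := by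
  have k : ∀ {a b : I9}, a ≠ b → ∃ σ, pm F σ ∈ M ∧ σ (1, 0) = a ∧ σ (2, 0) = b := fun {a b} h1 => by
    obtain ⟨i, j, k, e, f, h2⟩ := two_trans a b h1
    refine ⟨_, ?_, h2⟩
    have x : pm F (Equiv.prodCongrLeft fun _ : Fin 3 => finRotate 3) ∈ M := by
      rw [← bd_pm, ← yG_eq]; exact c.x
    have p : pm F (Equiv.prodCongrLeft fun _ : Fin 3 => Equiv.swap (1 : Fin 3) 2) ∈ M := by
      rw [← bd_pm]; exact c.k1N (P_N3 h)
    simp only [map_mul, map_pow]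
    exact mul_mem (mul_mem (mul_mem (mul_mem (pow_mem x _) (mul_mem (mul_mem c.sw (pow_mem x _))
      c.sw)) (pow_mem (cx_eq (F := F) ▸ c.cx) _)) (pow_mem c.sw _)) (pow_mem p _)
  obtain ⟨σ, a1, rfl, rfl⟩ := k h1
  obtain ⟨τ, b1, rfl, rfl⟩ := k h2
  exact ⟨τ * σ⁻¹, by rw [map_mul, map_inv]; exact mul_mem b1 (inv_mem a1), by simp, by simp⟩

end Cl

end Cfsg.Agent.N9
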